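import Mathlib
import Cfsg.Prelude.Def_OddOrderLocal
import Cfsg.Agent.Components.Cores
import Cfsg.Agent.Hall.Fitting
import Cfsg.Agent.RankTwoAut.Basic

/-!
Odd solvable groups whose derived elements act as `p`-elements on every `O_p`: the derived group lies in the
Fitting subgroup.
-/

set_option autoImplicit false
set_option linter.style.haveILetI false

namespace CfsgLib.OddFitting

open scoped commutatorElement
open CfsgLib.Components

variable {G : Type*} [Group G] [Finite G]

/-- The product of the `O_r` for the primes `r` of `|G|` satisfying `P`. -/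
def coreJoin (G : Type*) [Group G] (P : ℕ → Prop) : Subgroup G :=
  ⨆ r : {r : ℕ // r ∈ (Nat.card G).primeFactors ∧ P r}, Cfsg.pCore r.1 G

omit [Finite G] in
theorem coreJoin_normal (P : ℕ → Prop) : (coreJoin G P).Normal :=
  haveI : ∀ r : {r : ℕ // r ∈ (Nat.card G).primeFactors ∧ P r}, (Cfsg.pCore r.1 G).Normal := fun r =>
    haveI := pCore_characteristic (G := G) r.1
    inferInstance
  Subgroup.iSup_normal fun r : {r : ℕ // r ∈ (Nat.card G).primeFactors ∧ P r} => Cfsg.pCore r.1 G

theorem coreJoin_coprime (q : ℕ) [Fact q.Prime] (P : ℕ → Prop) (hP : ∀ r, P r → r ≠ q) :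
    (Nat.card (coreJoin G P)).Coprime q := by
  have hle : coreJoin G P ≤ Cfsg.pPrimeCore q G := iSup_le fun r => by
    haveI : Fact r.1.Prime := ⟨Nat.prime_of_mem_primeFactors r.2.1⟩
    haveI := pCore_characteristic (G := G) r.1
    refine le_pPrimeCore' inferInstance ?_
    obtain ⟨k, hk⟩ := IsPGroup.iff_card.1 (pCore_isPGroup (G := G) r.1)
    rw [hk]
    exact ((Nat.coprime_primes Fact.out Fact.out).2 (hP _ r.2.2)).pow_left k
  exact (pPrimeCore_coprime q).coprime_dvd_left (Subgroup.card_dvd_of_le hle)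

theorem le_coreJoin {P : ℕ → Prop} {r : ℕ} (hr : r.Prime) (hP : P r) :
    Cfsg.pCore r G ≤ coreJoin G P := by
  haveI := Fact.mk hr
  by_cases hd : r ∣ Nat.card G
  · exact le_iSup (fun r : {r : ℕ // r ∈ (Nat.card G).primeFactors ∧ P r} => Cfsg.pCore r.1 G)
      ⟨r, Nat.mem_primeFactors.2 ⟨hr, hd, Nat.card_pos.ne'⟩, hP⟩
  · obtain ⟨k, hk⟩ := IsPGroup.iff_card.1 (pCore_isPGroup (G := G) r)
    rcases Nat.eq_zero_or_pos k with rfl | hk0
    · rw [pow_zero] at hk
      rw [Subgroup.card_eq_one.1 hk]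
      exact bot_le
    · exact absurd ((dvd_pow_self r hk0.ne').trans (hk ▸ Subgroup.card_subgroup_dvd_card _)) hd

theorem fitting_le_sup (P : ℕ → Prop) :
    Cfsg.fittingSubgroup G ≤ coreJoin G P ⊔ coreJoin G (fun r => ¬ P r) := by
  rw [fittingSubgroup_eq_iSup]
  refine iSup_le fun q => ?_
  by_cases h : P q.1
  · exact (le_coreJoin (Nat.prime_of_mem_primeFactors q.2) h).trans le_sup_left
  · exact (le_coreJoin (P := fun r => ¬ P r) (Nat.prime_of_mem_primeFactors q.2) h).trans le_sup_right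

omit [Finite G] in
theorem coreJoin_le_fitting (P : ℕ → Prop) [Finite G] : coreJoin G P ≤ Cfsg.fittingSubgroup G :=
  iSup_le fun r => haveI : Fact r.1.Prime := ⟨Nat.prime_of_mem_primeFactors r.2.1⟩
    pCore_le_fittingSubgroup _

theorem coreJoin_disjoint (P : ℕ → Prop) : Disjoint (coreJoin G P) (coreJoin G fun r => ¬ P r) := by
  rw [disjoint_iff, ← Subgroup.card_eq_one]
  by_contra hne
  obtain ⟨q, hq, hd⟩ := Nat.exists_prime_and_dvd hne
  haveI := Fact.mk hq
  by_cases h : P q
  · have := coreJoin_coprime (G := G) q (fun r => ¬ P r) (fun r hr e => hr (e ▸ h))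
    exact hq.coprime_iff_not_dvd.1 this.symm (hd.trans (Subgroup.card_dvd_of_le inf_le_right))
  · have := coreJoin_coprime (G := G) q P (fun r hr e => h (e ▸ hr))
    exact hq.coprime_iff_not_dvd.1 this.symm (hd.trans (Subgroup.card_dvd_of_le inf_le_left))

/-- Splitting an element of the Fitting subgroup. -/
theorem exists_split (P : ℕ → Prop) {x : G} (hx : x ∈ Cfsg.fittingSubgroup G) :
    ∃ a ∈ coreJoin G P, ∃ b ∈ coreJoin G (fun r => ¬ P r), Commute a b ∧ x = a * b := by
  haveI := coreJoin_normal (G := G) P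
  obtain ⟨a, ha, b, hb, hab⟩ := Subgroup.mem_sup_of_normal_left.1 (fitting_le_sup P hx)
  exact ⟨a, ha, b, hb, Subgroup.commute_of_normal_of_disjoint _ _ (coreJoin_normal P) (coreJoin_normal _)
    (coreJoin_disjoint P) a b ha hb, hab.symm⟩

omit [Finite G] in
theorem mem_of_coprime_pow {H : Subgroup G} {y : G} {m n : ℕ} (hmn : m.Coprime n) (hy : y ^ m = 1)
    (h : y ^ n ∈ H) : y ∈ H := by
  obtain ⟨a, b, hab⟩ := Nat.isCoprime_iff_coprime.2 hmn
  have h1 : y = y ^ (a * (m : ℤ) + b * (n : ℤ)) := by rw [hab, zpow_one]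
  rw [h1, zpow_add, mul_comm a, zpow_mul, mul_comm b, zpow_mul, zpow_natCast, zpow_natCast, hy, one_zpow, one_mul]
  exact H.zpow_mem h b

theorem mem_left_of_pow {P : ℕ → Prop} {x : G} (hx : x ∈ Cfsg.fittingSubgroup G) {q n : ℕ} [Fact q.Prime]
    (hq : P q) (hxn : x ^ q ^ n = 1) : x ∈ coreJoin G P := by
  obtain ⟨a, ha, b, hb, hc, rfl⟩ := exists_split P hx
  refine (coreJoin G P).mul_mem ha ?_
  have h1 : b ^ q ^ n ∈ coreJoin G P ⊓ coreJoin G (fun r => ¬ P r) := by
    refine ⟨?_, Subgroup.pow_mem _ hb _⟩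
    rw [hc.mul_pow] at hxn
    rw [← inv_eq_of_mul_eq_one_right hxn]
    exact Subgroup.inv_mem _ (Subgroup.pow_mem _ ha _)
  have h2 : b = 1 := by
    rw [(coreJoin_disjoint P).eq_bot] at h1
    have h3 := coreJoin_coprime (G := G) q (fun r => ¬ P r) (fun r hr e => hr (e ▸ hq))
    refine Subgroup.mem_bot.1 (mem_of_coprime_pow (H := ⊥) (h3.pow_right n) ?_ h1)
    exact congrArg Subtype.val (pow_card_eq_one' (x := (⟨b, hb⟩ : coreJoin G fun r => ¬ P r)))
  rw [h2]
  exact one_mem _

theorem pCore_eq_coreJoin (q : ℕ) [Fact q.Prime] : coreJoin G (fun r => r = q) ≤ Cfsg.pCore q G :=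
  iSup_le fun r => by rw [r.2.2]

/-- Derived elements act as `p`-elements on every `O_p`, hence the derived group lies in `F(G)`. -/
theorem derived_le_fitting [Group.IsSolvable G]
    (h : ∀ p : ℕ, p.Prime → p ∣ Nat.card G → ∀ y ∈ commutator G,
      ∃ n : ℕ, y ^ p ^ n ∈ Subgroup.centralizer (Cfsg.pCore p G : Set G)) :
    commutator G ≤ Cfsg.fittingSubgroup G := by
  have hpn : ∀ p : ℕ, (Cfsg.pCore p G).Normal := fun p => by
    haveI := pCore_characteristic (G := G) p
    infer_instance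
  rw [← Subgroup.subgroupOf_eq_top]
  refine eq_top_of_sylow_le fun q hq T x hx => ?_
  haveI := Fact.mk hq
  haveI := coreJoin_normal (G := G) (fun r => r ≠ q)
  set M := commutator G ⊓ Subgroup.centralizer (coreJoin G (fun r => r ≠ q) : Set G) with hM
  have hMn : M.Normal := inferInstance
  -- `x` lies in `M`
  obtain ⟨n, hn⟩ := T.isPGroup' ⟨x, hx⟩
  have hxn : (x : G) ^ q ^ n = 1 := by
    have := congrArg Subtype.val hn
    simpa using congrArg Subtype.val this
  have hxM : (x : G) ∈ M := by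
    refine ⟨x.2, ?_⟩
    have : coreJoin G (fun r => r ≠ q) ≤ Subgroup.centralizer ({(x : G)} : Set G) := iSup_le fun r => by
      have hr := Nat.prime_of_mem_primeFactors r.2.1
      obtain ⟨i, hi⟩ := h r.1 hr (Nat.dvd_of_mem_primeFactors r.2.1) x x.2
      have hxc := mem_of_coprime_pow (((Nat.coprime_primes hq hr).2 (Ne.symm r.2.2)).pow n i) hxn hi
      exact fun c hc => Subgroup.mem_centralizer_singleton_iff.2 (Subgroup.mem_centralizer_iff.1 hxc c hc)
    exact Subgroup.mem_centralizer_iff.2 fun c hc => Subgroup.mem_centralizer_singleton_iff.1 (this hc)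
  -- `M` is nilpotent
  have hnil : Group.IsNilpotent M := by
    haveI := Fact.mk hq
    suffices IsPGroup q (M ⧸ Subgroup.center M) by
      exact Group.of_quotient_center_nilpotent this.isNilpotent
    intro z
    obtain ⟨m, rfl⟩ := QuotientGroup.mk_surjective z
    have key : ∃ i : ℕ, (m : G) ^ q ^ i ∈ Cfsg.fittingSubgroup G ∧
        ((m : G) ^ q ^ i) ^ (orderOf (m : G)) = 1 ∧ (orderOf ((m : G) ^ q ^ i)).Coprime q := by
      obtain ⟨i, hi⟩ : ∃ i : ℕ, (m : G) ^ q ^ i ∈ Subgroup.centralizer (Cfsg.pCore q G : Set G) := by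
        by_cases hd : q ∣ Nat.card G
        · exact h q hq hd m m.2.1
        · refine ⟨0, Subgroup.mem_centralizer_iff.2 fun c hc => ?_⟩
          obtain ⟨k, hk⟩ := IsPGroup.iff_card.1 (pCore_isPGroup (G := G) q)
          rcases Nat.eq_zero_or_pos k with rfl | hk0
          · rw [pow_zero] at hk
            rw [SetLike.mem_coe, Subgroup.card_eq_one.1 hk, Subgroup.mem_bot] at hc
            simp [hc]
          · exact absurd ((dvd_pow_self q hk0.ne').trans (hk ▸ Subgroup.card_subgroup_dvd_card _)) hd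
      obtain ⟨s, t, ht, hst⟩ := Nat.exists_eq_pow_mul_and_not_dvd (orderOf_pos (m : G)).ne' q hq.ne_one
      refine ⟨i + s, Hall.centralizer_fitting_le ?_, ?_, ?_⟩
      · have hq' : (m : G) ^ q ^ (i + s) ∈ Subgroup.centralizer (Cfsg.pCore q G : Set G) := by
          rw [pow_add, pow_mul]; exact Subgroup.pow_mem _ hi _
        refine Subgroup.mem_centralizer_iff.2 fun c hc => ?_
        have hle : Cfsg.fittingSubgroup G ≤ Subgroup.centralizer ({(m : G) ^ q ^ (i + s)} : Set G) := by
          refine (fitting_le_sup (fun r => r = q)).trans (sup_le ?_ ?_)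
          · exact fun c hc => Subgroup.mem_centralizer_singleton_iff.2
              (Subgroup.mem_centralizer_iff.1 hq' c (pCore_eq_coreJoin q hc))
          · exact fun c hc => Subgroup.mem_centralizer_singleton_iff.2
              (Subgroup.mem_centralizer_iff.1 (Subgroup.pow_mem _ m.2.2 _) c hc)
        exact Subgroup.mem_centralizer_singleton_iff.1 (hle hc)
      · rw [← pow_mul, mul_comm, pow_mul, pow_orderOf_eq_one, one_pow]
      · have h1 : ((m : G) ^ q ^ (i + s)) ^ t = 1 := by
          rw [← pow_mul, show q ^ (i + s) * t = orderOf (m : G) * q ^ i by rw [hst, pow_add]; ring,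
            pow_mul, pow_orderOf_eq_one, one_pow]
        exact ((hq.coprime_iff_not_dvd.2 ht).symm).coprime_dvd_left (orderOf_dvd_of_pow_eq_one h1)
    obtain ⟨i, hiF, -, hco⟩ := key
    refine ⟨i, ?_⟩
    rw [← QuotientGroup.mk_pow, QuotientGroup.eq_one_iff, Subgroup.mem_center_iff]
    intro g
    refine Subtype.ext ?_
    rw [Subgroup.coe_mul, Subgroup.coe_mul, Subgroup.coe_pow]
    obtain ⟨a, ha, b, hb, hc, hab⟩ := exists_split (fun r => r ≠ q) hiF
    have hb1 : b = 1 := by
      have hbq : IsPGroup q (coreJoin G fun r => ¬ r ≠ q) := (pCore_isPGroup q).to_le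
        (iSup_le fun r => by rw [not_not.1 r.2.2])
      obtain ⟨k, hk⟩ := hbq ⟨b, hb⟩
      have hbk : b ^ q ^ k = 1 := by simpa using congrArg Subtype.val hk
      have h1 : ((m : G) ^ q ^ i) ^ q ^ k ∈ coreJoin G (fun r => r ≠ q) := by
        rw [hab, hc.mul_pow, hbk, mul_one]
        exact Subgroup.pow_mem _ ha _
      have h2 := mem_of_coprime_pow (hco.pow_right k) (pow_orderOf_eq_one _) h1
      rw [hab] at h2
      have h3 : b ∈ coreJoin G (fun r => r ≠ q) := by
        have := Subgroup.mul_mem _ (Subgroup.inv_mem _ ha) h2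
        rwa [inv_mul_cancel_left] at this
      exact Subgroup.mem_bot.1 ((coreJoin_disjoint (G := G) (fun r => r ≠ q)).eq_bot ▸ ⟨h3, hb⟩)
    rw [hab, hb1, mul_one]
    exact (Subgroup.mem_centralizer_iff.1 g.2.2 a ha).symm
  rw [Subgroup.mem_subgroupOf]
  exact le_fittingSubgroup hMn hnil hxM

/-- The rank two hypothesis on `O_p` gives the action hypothesis. -/
theorem pow_mem_of_rank {p : ℕ} [Fact p.Prime] (hodd : Odd (Nat.card G)) (hp : p ∣ Nat.card G)
    (hr : ∀ A : Subgroup G, A ≤ Cfsg.pCore p G → IsMulCommutative A → (∀ a ∈ A, a ^ p = 1) → Nat.card A ≤ p ^ 2)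
    {y : G} (hy : y ∈ commutator G) :
    ∃ n : ℕ, y ^ p ^ n ∈ Subgroup.centralizer (Cfsg.pCore p G : Set G) := by
  haveI := pCore_characteristic (G := G) p
  have hp2 : p ≠ 2 := fun h => Nat.not_even_iff_odd.2 hodd (even_iff_two_dvd.2 (h ▸ hp))
  obtain ⟨n, hn⟩ := RankTwoAut.exists_pow_eq_one hp2 (pCore_isPGroup (G := G) p)
    (fun A hA hAe => by
      haveI := hA
      refine le_of_eq_of_le (Subgroup.card_map_of_injective (Cfsg.pCore p G).subtype_injective).symm
        (hr (A.map (Cfsg.pCore p G).subtype) (Subgroup.map_subtype_le _) inferInstance ?_)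
      rintro _ ⟨a, ha, rfl⟩
      exact congrArg Subtype.val (hAe a ha))
    hodd (MulAut.conjNormal : G →* MulAut (Cfsg.pCore p G)) hy
  refine ⟨n, Subgroup.mem_centralizer_iff.2 fun c hc => ?_⟩
  rw [← map_pow] at hn
  have h := congrArg Subtype.val (DFunLike.congr_fun hn ⟨c, hc⟩)
  rw [MulAut.conjNormal_apply, MulAut.one_apply] at h
  exact (mul_inv_eq_iff_eq_mul.1 h).symm

end CfsgLib.OddFitting
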