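import Cfsg.Agent.OddFitting.Basic
import Cfsg.Agent.S0640
import Cfsg.Agent.S1461
import Cfsg.Agent.PCore.Basic
import Cfsg.Agent.ZJ.Complement
import Cfsg.Prelude.Def_Local
import Cfsg.Prelude.Def_CaseTheorems
import Cfsg.Prelude.Def_OddOrderLocal

/-!
Odd solvable groups with a narrow `p`-core modulo `O_{p'}`.
-/

set_option autoImplicit false
set_option linter.style.haveILetI false

namespace CfsgLib.OddFitting

open CfsgLib.Components
open scoped commutatorElement

/-- Rank at most two, or few fixed points of some element on the elements of order `p`. -/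
def Small (p : ℕ) (R : Type*) [Group R] : Prop :=
  Cfsg.PRankLE p 2 R ∨
    ∃ e : R, ∀ B : Subgroup R, (∀ b ∈ B, b ^ p = 1 ∧ b * e = e * b) → Nat.card B ≤ p ^ 2

theorem Small.of_equiv {p : ℕ} {R R' : Type*} [Group R] [Group R'] (h : Small p R) (φ : R ≃* R') :
    Small p R' := by
  rcases h with h | ⟨e, he⟩
  · refine Or.inl fun A hA hAe => ?_
    haveI := hA
    rw [← Subgroup.card_map_of_injective (f := φ.symm.toMonoidHom) φ.symm.injective (K := A)]
    refine h (A.map φ.symm.toMonoidHom) inferInstance ?_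
    rintro _ ⟨a, ha, rfl⟩
    rw [← map_pow, hAe a ha, map_one]
  · refine Or.inr ⟨φ e, fun B hB => ?_⟩
    rw [← Subgroup.card_map_of_injective (f := φ.symm.toMonoidHom) φ.symm.injective (K := B)]
    refine he _ ?_
    rintro _ ⟨b, hb, rfl⟩
    obtain ⟨h1, h2⟩ := hB b hb
    refine ⟨by rw [← map_pow, h1, map_one], ?_⟩
    have := congrArg φ.symm h2
    simpa using this

theorem small_of_narrow {p : ℕ} [hp : Fact p.Prime] {R : Type*} [Group R] [Finite R] (h : Cfsg.IsNarrow p R) :
    Small p R := by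
  rcases h with h | ⟨R₀, R₁, h0, h1, hinf, hcomm, hsup⟩
  · exact Or.inl h
  haveI : IsCyclic R₀ := isCyclic_of_prime_card (p := p) h0
  obtain ⟨g, hg⟩ := IsCyclic.exists_generator (α := R₀)
  refine Or.inr ⟨g, fun B hB => ?_⟩
  haveI := h1
  letI : CommGroup R₁ := IsCyclic.commGroup
  let T : Subgroup R₁ := (powMonoidHom p : R₁ →* R₁).ker
  have hT : Nat.card T ≤ p := by
    classical
    haveI := Fintype.ofFinite R₁
    have h := IsCyclic.card_pow_eq_one_le (α := R₁) hp.out.pos
    rw [Nat.card_eq_fintype_card]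
    refine le_trans (le_of_eq ?_) h
    rw [← Fintype.card_subtype]
    exact Fintype.card_congr (Equiv.subtypeEquivRight fun x => by simp [T])
  have hle : ∀ b ∈ B, ∃ a : R₀, ∃ c : T, b = (a : R) * ((c : R₁) : R) := by
    intro b hb
    obtain ⟨hbp, hbe⟩ := hB b hb
    have hbC : b ∈ Subgroup.centralizer (R₀ : Set R) := Subgroup.mem_centralizer_iff.2 fun x hx => by
      obtain ⟨m, hm⟩ := Subgroup.mem_zpowers_iff.1 (hg ⟨x, hx⟩)
      rw [← show ((g ^ m : R₀) : R) = x from congrArg Subtype.val hm, Subgroup.coe_zpow]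
      exact (Commute.zpow_left (hbe.symm : Commute (g : R) b) m).eq
    rw [← hsup] at hbC
    have hnorm : R₀ ≤ Subgroup.normalizer (R₁ : Set R) := fun a ha => Subgroup.mem_normalizer_iff.2 fun y => by
      constructor
      · intro hy
        rwa [hcomm a ha y hy, mul_inv_cancel_right]
      · intro hy
        have h := hcomm a ha _ hy
        rw [inv_mul_cancel_right, mul_left_cancel_iff] at h
        rwa [h] at hy
    have hmem : b ∈ ((R₀ ⊔ R₁ : Subgroup R) : Set R) := hbC
    rw [Subgroup.coe_mul_of_left_le_normalizer_right R₀ R₁ hnorm] at hmem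
    obtain ⟨a, ha, c, hc, rfl⟩ := hmem
    have hap : a ^ p = 1 := by
      have := congrArg Subtype.val (pow_card_eq_one' (x := (⟨a, ha⟩ : R₀)))
      rw [h0] at this
      simpa using this
    rw [Commute.mul_pow (hcomm a ha c hc), hap, one_mul] at hbp
    exact ⟨⟨a, ha⟩, ⟨⟨c, hc⟩, Subtype.ext (by simpa using hbp)⟩, rfl⟩
  choose fa fc hf using hle
  calc Nat.card B ≤ Nat.card (R₀ × T) := Nat.card_le_card_of_injective
        (fun b : B => (fa b.1 b.2, fc b.1 b.2)) (fun b b' h => Subtype.ext (by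
          simp only [Prod.mk.injEq] at h
          rw [hf b.1 b.2, hf b'.1 b'.2, h.1, h.2]))
    _ ≤ p ^ 2 := by
      rw [Nat.card_prod, h0, pow_two]
      exact Nat.mul_le_mul_left _ hT

variable {p : ℕ} [hp : Fact p.Prime] {G : Type*} [Group G] [Finite G]

theorem Small.action {R : Type*} [Group R] [Finite R] (h : Small p R) (hp2 : p ≠ 2) (hR : IsPGroup p R)
    {X : Type*} [Group X] [Finite X] (hX : Odd (Nat.card X)) (f : X →* MulAut R) {m : X}
    (hm : m ∈ commutator X) : ∃ n : ℕ, f m ^ p ^ n = 1 := by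
  rcases h with h | ⟨e, he⟩
  · exact RankTwoAut.exists_pow_eq_one hp2 hR (fun A hA hAe => h A hA hAe) hX f hm
  · exact RankTwoAut.exists_pow_eq_one_few hp2 hR e he hX f hm

theorem Small.prime_lt {R : Type*} [Group R] [Finite R] (h : Small p R) (hp2 : p ≠ 2) (hR : IsPGroup p R)
    {q : ℕ} (hq : q.Prime) (hqp : q ≠ p) (hdvd : q ∣ Nat.card (MulAut R)) : q < p := by
  rcases h with h | ⟨e, he⟩
  · exact (Cfsg.Agent.S0640.result hp2 hR h q hq hqp hdvd).2
  · exact RankTwoAut.prime_lt_few hp2 hR e he hq hqp hdvd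

/-- The core of the structure theorems: `O_{p'}(G) = 1`. -/
theorem reduced_structure [Group.IsSolvable G] (hodd : Odd (Nat.card G)) (hp2 : p ≠ 2)
    (hO : Cfsg.pPrimeCore p G = ⊥) (hs : Small p (Cfsg.pCore p G)) :
    commutator G ≤ Cfsg.pCore p G ∧ (Cfsg.pCore p G).index.Coprime p ∧
      ∀ q : ℕ, q.Prime → q ∣ Nat.card G → q ≤ p := by
  set R := Cfsg.pCore p G with hR
  haveI hRn : R.Normal := by
    haveI := pCore_characteristic (G := G) p
    rw [hR]; infer_instance
  have hRp : IsPGroup p R := pCore_isPGroup p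
  have hother : ∀ r : ℕ, r.Prime → r ≠ p → Cfsg.pCore r G = ⊥ := by
    intro r hr hne
    haveI := Fact.mk hr
    haveI := pCore_characteristic (G := G) r
    rw [eq_bot_iff, ← hO]
    refine le_pPrimeCore' inferInstance ?_
    obtain ⟨k, hk⟩ := IsPGroup.iff_card.1 (pCore_isPGroup (G := G) r)
    rw [hk]
    exact ((Nat.coprime_primes hr hp.out).2 hne).pow_left k
  have hFR : Cfsg.fittingSubgroup G ≤ R := by
    rw [fittingSubgroup_eq_iSup]
    refine iSup_le fun r => ?_
    by_cases h : (r : ℕ) = p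
    · rw [h]
    · rw [hother _ (Nat.prime_of_mem_primeFactors r.2) h]
      exact bot_le
  have hGR : commutator G ≤ R := by
    refine le_trans (derived_le_fitting fun r hr _ y hy => ?_) hFR
    by_cases h : r = p
    · subst h
      obtain ⟨n, hn⟩ := hs.action hp2 hRp hodd (MulAut.conjNormal : G →* MulAut R) hy
      refine ⟨n, Subgroup.mem_centralizer_iff.2 fun c hc => ?_⟩
      rw [← map_pow] at hn
      have h := congrArg Subtype.val (DFunLike.congr_fun hn ⟨c, hc⟩)
      rw [MulAut.conjNormal_apply, MulAut.one_apply] at h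
      exact (mul_inv_eq_iff_eq_mul.1 h).symm
    · refine ⟨0, Subgroup.mem_centralizer_iff.2 fun c hc => ?_⟩
      rw [SetLike.mem_coe, hother r hr h, Subgroup.mem_bot] at hc
      simp [hc]
  refine ⟨hGR, ?_, fun q hq hd => ?_⟩
  · rw [Nat.coprime_comm, hp.out.coprime_iff_not_dvd]
    intro hd
    let P : Sylow p G := default
    have hPn : (P : Subgroup G) ⊔ R ≤ R := by
      refine le_pCore (N := (P : Subgroup G) ⊔ R) ⟨fun x hx g => ?_⟩
        (IsPGroup.to_sup_of_normal_right P.isPGroup' hRp)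
      have h : ⁅g, x⁆ ∈ R := hGR (Subgroup.commutator_mem_commutator (Subgroup.mem_top g) (Subgroup.mem_top x))
      rw [show g * x * g⁻¹ = ⁅g, x⁆ * x by rw [commutatorElement_def]; group]
      exact Subgroup.mul_mem _ (Subgroup.mem_sup_right h) hx
    exact P.not_dvd_index (hd.trans (Subgroup.index_dvd_of_le (le_sup_left.trans hPn)))
  · by_cases hqp : q = p
    · exact hqp.le
    haveI := Fact.mk hq
    obtain ⟨x, hx⟩ := exists_prime_orderOf_dvd_card' q hd
    have hf : (MulAut.conjNormal : G →* MulAut R) x ≠ 1 := by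
      intro h
      have hxC : x ∈ Subgroup.centralizer (Cfsg.fittingSubgroup G : Set G) :=
        Subgroup.mem_centralizer_iff.2 fun c hc => by
          have h := congrArg Subtype.val (DFunLike.congr_fun h ⟨c, hFR hc⟩)
          rw [MulAut.conjNormal_apply, MulAut.one_apply] at h
          exact (mul_inv_eq_iff_eq_mul.1 h).symm
      have hxR := hFR (Hall.centralizer_fitting_le hxC)
      obtain ⟨k, hk⟩ := IsPGroup.iff_card.1 hRp
      have h1 := Subgroup.orderOf_dvd_natCard R hxR
      rw [hx, hk] at h1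
      exact hqp ((Nat.prime_dvd_prime_iff_eq hq hp.out).1 (hq.dvd_of_dvd_pow h1))
    have h1 : orderOf ((MulAut.conjNormal : G →* MulAut R) x) = q :=
      orderOf_eq_prime (by rw [← map_pow, ← hx, pow_orderOf_eq_one, map_one]) hf
    exact (hs.prime_lt hp2 hRp hq hqp (h1 ▸ orderOf_dvd_natCard _)).le

/-- The five conclusions about `G` from the reduced ones about `G / O_{p'}(G)`. -/
theorem structure_of_small [Group.IsSolvable G] (hodd : Odd (Nat.card G)) (hpG : p ∣ Nat.card G)
    (hs : Small p (Cfsg.pCore p (G ⧸ Cfsg.pPrimeCore p G))) :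
    (∀ q : ℕ, q.Prime → q ∣ (Cfsg.pPrimeCore p G).index → q ≤ p) ∧
      ((p = 3 ∨ ∀ q : ℕ, q.Prime → q ∣ Nat.card G → p ≤ q) → Cfsg.HasNormalPComplement p G) ∧
      Cfsg.HasNormalPComplement p ↥(commutator G) ∧
      (∀ L : Subgroup ↥(commutator G), (Nat.card L).Coprime p → L ≤ Cfsg.pPrimeCore p ↥(commutator G)) ∧
      commutator G ≤ Cfsg.pPrimePCore p G ∧ ((Cfsg.pPrimePCore p G).index).Coprime p := by
  set K := Cfsg.pPrimeCore p G with hK
  have hp2 : p ≠ 2 := fun e => Nat.not_even_iff_odd.2 hodd (even_iff_two_dvd.2 (e ▸ hpG))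
  haveI : Group.IsSolvable (G ⧸ K) := Group.isSolvable_of_surjective (QuotientGroup.mk'_surjective K)
  have hoddQ : Odd (Nat.card (G ⧸ K)) := hodd.of_dvd_nat (Subgroup.card_quotient_dvd_card K)
  obtain ⟨hGR, hidx, hle⟩ := reduced_structure hoddQ hp2 PCore.pPrimeCore_quotient hs
  set R := Cfsg.pCore p (G ⧸ K) with hR
  have hKco : (Nat.card K).Coprime p := pPrimeCore_coprime p
  have hcomap : commutator G ≤ R.comap (QuotientGroup.mk' K) := by
    rw [← Subgroup.map_le_iff_le_comap, commutator_def, Subgroup.map_commutator]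
    exact (Subgroup.commutator_mono le_top le_top).trans hGR
  have hRp : IsPGroup p R := pCore_isPGroup p
  have hidx' : ((Cfsg.pPrimePCore p G).index).Coprime p := by
    rw [show Cfsg.pPrimePCore p G = R.comap (QuotientGroup.mk' K) from rfl,
      Subgroup.index_comap_of_surjective _ (QuotientGroup.mk'_surjective K)]
    exact hidx
  set N : Subgroup (commutator G) := K.subgroupOf (commutator G) with hN
  have hNco : (Nat.card N).Coprime p := by
    refine hKco.coprime_dvd_left ?_
    rw [← Subgroup.card_map_of_injective (commutator G).subtype_injective (K := N)]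
    exact Subgroup.card_dvd_of_le (by
      rw [hN, Subgroup.subgroupOf_map_subtype]
      exact inf_le_left)
  have hquot : ∀ x : commutator G, ∃ n : ℕ, x ^ p ^ n ∈ N := fun x => by
    obtain ⟨n, hn⟩ := hRp ⟨QuotientGroup.mk' K x, hcomap x.2⟩
    refine ⟨n, ?_⟩
    rw [hN, Subgroup.mem_subgroupOf, Subgroup.coe_pow, ← QuotientGroup.eq_one_iff]
    exact (congrArg Subtype.val hn)
  refine ⟨fun q hq hd => hle q hq (by rwa [← Subgroup.index_eq_card]), ?_, ?_, ?_, hcomap, hidx'⟩
  · intro hcase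
    refine ZJ.hasNormalPComplement_of_quotient K hKco ?_
    refine Transfer.hasNormalPComplement_of_normal ⊥ (by rw [Subgroup.card_bot]; exact hp.out.not_dvd_one) ?_
    intro x
    obtain ⟨y, rfl⟩ := QuotientGroup.mk_surjective x
    have hcard : ∀ q : ℕ, q.Prime → q ∣ Nat.card (G ⧸ K) → q = p := by
      intro q hq hd
      refine le_antisymm (hle q hq hd) ?_
      rcases hcase with h3 | hmin
      · have hq2 : q ≠ 2 := fun e => Nat.not_even_iff_odd.2 hoddQ (even_iff_two_dvd.2 (e ▸ hd))
        have := hq.two_le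
        omega
      · exact hmin q hq (hd.trans (Subgroup.card_quotient_dvd_card K))
    have hpow : Nat.card (G ⧸ K) = p ^ (Nat.card (G ⧸ K)).primeFactorsList.length :=
      Nat.eq_prime_pow_of_unique_prime_dvd Nat.card_pos.ne' fun {d} hd hdd => hcard d hd hdd
    exact ⟨_, by rw [← QuotientGroup.mk_pow, ← hpow, pow_card_eq_one', QuotientGroup.mk_one]⟩
  · refine Transfer.hasNormalPComplement_of_normal N ((hp.out.coprime_iff_not_dvd).1 hNco.symm) ?_
    intro x
    obtain ⟨y, rfl⟩ := QuotientGroup.mk_surjective x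
    obtain ⟨n, hn⟩ := hquot y
    exact ⟨n, by rw [← QuotientGroup.mk_pow, QuotientGroup.eq_one_iff]; exact hn⟩
  · intro L hL x hx
    refine (le_pPrimeCore' (inferInstance : N.Normal) hNco) ?_
    obtain ⟨n, hn⟩ := hquot x
    refine mem_of_coprime_pow (H := N) ((hL.pow_right n)) ?_ hn
    exact orderOf_dvd_iff_pow_eq_one.1 (Subgroup.orderOf_dvd_natCard L hx)

/-- A Sylow subgroup maps injectively modulo a subgroup of order prime to `p`. -/
theorem sylow_mk_injective (S : Sylow p G) {x : G} (hx : x ∈ (S : Subgroup G))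
    (h : x ∈ Cfsg.pPrimeCore p G) : x = 1 := by
  obtain ⟨n, hn⟩ := IsPGroup.iff_card.1 S.isPGroup'
  rw [← orderOf_eq_one_iff]
  exact Nat.eq_one_of_dvd_coprimes ((pPrimeCore_coprime (G := G) p).pow_right n)
    (Subgroup.orderOf_dvd_natCard _ h) (hn ▸ Subgroup.orderOf_dvd_natCard _ hx)

theorem small_quotient_of_rank (S : Sylow p G) (hr : Cfsg.PRankLE p 2 ↥(S : Subgroup G)) :
    Small p (Cfsg.pCore p (G ⧸ Cfsg.pPrimeCore p G)) := by
  refine Or.inl fun A hA hAe => ?_
  haveI := hA
  set f : (S : Subgroup G) →* G ⧸ Cfsg.pPrimeCore p G :=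
    (QuotientGroup.mk' (Cfsg.pPrimeCore p G)).comp (S : Subgroup G).subtype with hf
  have hfinj : Function.Injective f := by
    rw [← MonoidHom.ker_eq_bot_iff, Subgroup.eq_bot_iff_forall]
    intro x hx
    exact Subtype.ext (sylow_mk_injective S x.2 ((QuotientGroup.eq_one_iff _).1 hx))
  set A' := A.map (Cfsg.pCore p (G ⧸ Cfsg.pPrimeCore p G)).subtype with hA'
  have hle : A' ≤ f.range := by
    refine (Subgroup.map_subtype_le A).trans ((PCore.pCore_le_sylow
      (S.mapSurjective (QuotientGroup.mk'_surjective (Cfsg.pPrimeCore p G)))).trans ?_)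
    rw [Sylow.coe_mapSurjective]
    rintro _ ⟨s, hs, rfl⟩
    exact ⟨⟨s, hs⟩, rfl⟩
  have h1 : Nat.card (A'.comap f) = Nat.card A := by
    rw [← Subgroup.card_map_of_injective hfinj (K := A'.comap f), Subgroup.map_comap_eq_self hle, hA',
      Subgroup.card_map_of_injective (Subgroup.subtype_injective _)]
  rw [← h1]
  refine hr _ ⟨⟨fun a b => Subtype.ext (hfinj ?_)⟩⟩ (fun a ha => hfinj ?_)
  · rw [Subgroup.coe_mul, Subgroup.coe_mul, map_mul, map_mul]
    exact setLike_mul_comm (show f a ∈ A' from a.2) (show f b ∈ A' from b.2)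
  · obtain ⟨c, hc, hce⟩ := (show f a ∈ A' from ha)
    rw [map_pow, map_one, ← hce, ← map_pow, hAe c hc, map_one]

theorem small_quotient_of_pLength [Group.IsSolvable G] (S : Sylow p G) (hs : Small p ↥(S : Subgroup G))
    (hpl : Cfsg.PLengthLE p 1 G) : Small p (Cfsg.pCore p (G ⧸ Cfsg.pPrimeCore p G)) := by
  obtain ⟨U, hUn, hUc, hSU⟩ := Cfsg.Agent.S1461.exists_core_sup hpl S
  set K := Cfsg.pPrimeCore p G with hK
  set T := S.mapSurjective (QuotientGroup.mk'_surjective K) with hT
  have hUK : U ≤ K := le_pPrimeCore' hUn hUc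
  have hTn : (T : Subgroup (G ⧸ K)).Normal := by
    have h := hSU.map (QuotientGroup.mk' K) (QuotientGroup.mk'_surjective K)
    rw [Subgroup.map_sup, (Subgroup.map_eq_bot_iff U).2 (by rw [QuotientGroup.ker_mk']; exact hUK), sup_bot_eq] at h
    rwa [hT, Sylow.coe_mapSurjective]
  have heq : Cfsg.pCore p (G ⧸ K) = (T : Subgroup (G ⧸ K)) :=
    le_antisymm (PCore.pCore_le_sylow T) (le_pCore hTn T.isPGroup')
  rw [heq]
  let f : (S : Subgroup G) →* (T : Subgroup (G ⧸ K)) :=
    ((QuotientGroup.mk' K).comp (S : Subgroup G).subtype).codRestrict _ fun s => by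
      rw [hT, Sylow.coe_mapSurjective]; exact Subgroup.mem_map_of_mem _ s.2
  refine hs.of_equiv (MulEquiv.ofBijective f ⟨?_, ?_⟩)
  · rw [← MonoidHom.ker_eq_bot_iff, Subgroup.eq_bot_iff_forall]
    intro x hx
    exact Subtype.ext (sylow_mk_injective S x.2 ((QuotientGroup.eq_one_iff _).1 (congrArg Subtype.val hx)))
  · rintro ⟨y, hy⟩
    rw [hT, Sylow.coe_mapSurjective] at hy
    obtain ⟨s, hs', rfl⟩ := hy
    exact ⟨⟨s, hs'⟩, rfl⟩

end CfsgLib.OddFitting
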